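import Cfsg.Agent.H571.EP.OmC3Q
import Cfsg.Agent.H681.EP.OmC3Asm

/-!
# S3499: the row Om-C3 (helper571)
-/

set_option autoImplicit false

namespace Cfsg.Agent.H571.EP

theorem omC3Q' : Cfsg.Agent.H681.EP.OmC3Q := omC3Q

/-- **Row Om-C3** -/
theorem omC3 : Cfsg.Agent.H778.EP.OmC3 := Cfsg.Agent.H681.EP.omC3_of omC3Q'

end Cfsg.Agent.H571.EP
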